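import Cfsg.Agent.Lib.Compute.J3.MultDefs

/-!
# The kernel checks on relators and relations for the multiplier of `J₃`
-/

set_option autoImplicit false

namespace Cfsg.Agent.Lib.Compute.J3.MultDefs

open Cfsg.Agent.Lib.Compute.PermCert Cfsg.Agent.Lib.Compute.PeelCert
open Cfsg.Agent.Lib.Compute.J3.Data Cfsg.Agent.Lib.Compute.J3.F4Mat Cfsg.Agent.Lib.Compute.J3.MultData
open Cfsg.Agent.Lib.Compute.J3.Check Cfsg.Agent.Lib.Compute.J3.InvCheck

theorem repG_zero : repG 0 = oneC := by decide +kernel
theorem relW_ok : WW.all relOK = true := by decide +kernel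
theorem a_inv : mm aC aiC = oneC := by decide +kernel
theorem b_inv : mm bC biC = oneC := by decide +kernel
theorem exW0 : WW.getD 0 [] = (WW.getD 0 []).dropLast ++ [2 * 0 + 1] := by decide +kernel
theorem exW1 : WW.getD 1 [] = (WW.getD 1 []).dropLast ++ [2 * 1 + 1] := by decide +kernel
theorem exvW : ∀ k < 2, ∀ j < 2, Cfsg.Agent.Lib.Compute.SchurLin.expV ((WW.getD k []).dropLast) j = 0 := by decide +kernel
theorem wcW0 : wc lcG (WW.getD 0 []).dropLast = aC := by decide +kernel
theorem wcW1 : wc lcG (WW.getD 1 []).dropLast = bC := by decide +kernel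
theorem wcW5 : wc lcG (WW.getD 5 []) = zc2 := by decide +kernel
theorem zc2_sq : mm zc2 zc2 = zc := by decide +kernel
theorem wX1_ok : wc lcG WX1 = mm x1C (zP eX1) ∧ (∀ x ∈ WX1, x < 2 * 2) := by decide +kernel
theorem wX2_ok : wc lcG WX2 = mm x2C (zP eX2) ∧ (∀ x ∈ WX2, x < 2 * 2) := by decide +kernel
theorem decA_ok : decOK cA decA = true := by decide +kernel
theorem decB_ok : decOK cB decB = true := by decide +kernel
theorem sift_a_ok : siftOK sift_a aC = true := by decide +kernel
theorem sift_b_ok : siftOK sift_b bC = true := by decide +kernel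
theorem sift_x1_ok : siftOK sift_x1 x1C = true := by decide +kernel
theorem sift_x2_ok : siftOK sift_x2 x2C = true := by decide +kernel
theorem lenW : ∀ w ∈ WW, w.length ≤ 54 := by decide +kernel
theorem hoffG : bdB BB 32768 (8 + 36) offC = true := by decide +kernel
theorem hEG : EG = BB ^ (8 + 36) := by decide +kernel
theorem relsG_ok : relsOK tG 2 12312 rkG formG WW offC 2 BB 302 (8 + 36) 10 relL = true := by decide +kernel
theorem ordG_ok : cmbOK (relVecs BB (8 + 36) relL) ordP ordM (Cfsg.Agent.Lib.Compute.SchurLin.unitV 43 3) = true := by decide +kernel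
theorem tgtG_ok : tgtL.all (tgtOK (relVecs BB (8 + 36) relL) 43) = true := by decide +kernel
theorem covG : ∀ j < 8 + 36, j = 43 ∨ j ∈ tgtL.map Prod.fst := by decide +kernel

end Cfsg.Agent.Lib.Compute.J3.MultDefs
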