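import Cfsg.Agent.Lib.Compute.J3.InvDefs
import Cfsg.Agent.Lib.Compute.J3.MultData
import Cfsg.Agent.Lib.Compute.PeelCert

/-!
# Definitions of the kernel checks for the multiplier of `J₃`

The table of the action of two generators of `J₃` on the `12312` cosets of a subgroup `L₂(16)`, with the linear forms of
the peeling certificate, and the same for the action of `L₂(16)` on the `240` cosets of a subgroup of order `17`.
-/

set_option autoImplicit false

namespace Cfsg.Agent.Lib.Compute.J3.MultDefs

open Cfsg.Agent.Lib.Compute.PermCert Cfsg.Agent.Lib.Compute.PeelCert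
open Cfsg.Agent.Lib.Compute.SchurLin (flp expV)
open Cfsg.Agent.Lib.Compute.J3.Data Cfsg.Agent.Lib.Compute.J3.F4Mat Cfsg.Agent.Lib.Compute.J3.MultData
open Cfsg.Agent.Lib.Compute.J3.Check Cfsg.Agent.Lib.Compute.J3.InvCheck

noncomputable section

/-- An entry of a table in blocks. -/
def gt2 (w m W M sh low big i : Nat) : Nat :=
  frc (Nat.shiftRight i sh) fun q => frc (Nat.land i low) fun r =>
    Nat.land (Nat.shiftRight (Nat.land (Nat.shiftRight big (Nat.mul W q)) M) (Nat.mul w r)) m

/-- A mask. -/
def M896 : Nat := Nat.sub (Nat.shiftLeft 1 896) 1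
/-- A mask. -/
def M1024 : Nat := Nat.sub (Nat.shiftLeft 1 1024) 1
/-- A mask. -/
def M2112 : Nat := Nat.sub (Nat.shiftLeft 1 2112) 1
/-- A mask. -/
def M14784 : Nat := Nat.sub (Nat.shiftLeft 1 14784) 1
/-- A mask. -/
def M2592 : Nat := Nat.sub (Nat.shiftLeft 1 2592) 1
/-- A mask. -/
def M924 : Nat := Nat.sub (Nat.shiftLeft 1 924) 1

/-- The coset table. -/
def tG (i x : Nat) : Nat :=
  frc (Nat.add (Nat.mul 4 i) x) fun k => gt2 14 16383 896 M896 6 63 tBig k
/-- The parents and letters. -/
def plG (i : Nat) : Nat := gt2 16 65535 1024 M1024 6 63 plBig i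
/-- The parents. -/
def parG (i : Nat) : Nat := Nat.land (plG i) 16383
/-- The letters to the parents. -/
def ltG (i : Nat) : Nat := Nat.shiftRight (plG i) 14
/-- The data of a label. -/
def varE (u : Nat) : Nat := gt2 33 8589934591 2112 M2112 6 63 varBig u
/-- The rank of a label. -/
def rkG (u : Nat) : Nat := Nat.land (varE u) 32767
/-- The relator of a label. -/
def kkG (u : Nat) : Nat := Nat.land (Nat.shiftRight (varE u) 15) 15
/-- The point of a label. -/
def ssG (u : Nat) : Nat := Nat.shiftRight (varE u) 19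
/-- The form of a rank. -/
def formG (r : Nat) : Nat := gt2 924 M924 14784 M14784 4 15 formBig r
/-- The label parameters. -/
def pVG (j : Nat) : Nat := pVL.getD j 0
/-- The representative of a coset. -/
def repG (i : Nat) : Nat := gt2 162 M162 2592 M2592 4 15 repBig i
/-- The Schreier element of an edge. -/
def edgeG (u : Nat) : Nat := gt2 14 16383 896 M896 6 63 edgeBig u

/-- The base. -/
def BB : Nat := 2097152
/-- The error digit. -/
def EG : Nat := Nat.pow BB 44

/-- The check of a label. -/
def varOK (u : Nat) : Bool :=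
  Nat.blt (ssG u) 12312 && bdB BB 32768 44 (formG (rkG u)) &&
    chkVar tG 2 parG ltG rkG formG kkG ssG pVG WW offC EG 2 BB 10 8 36 u

/-- The letters. -/
def lcG (x : Nat) : Nat := Nat.rec aC (fun n _ => Nat.rec aiC (fun n _ => Nat.rec bC (fun _ _ => biC) n) n) x

/-- The powers of the scalar. -/
def zP (e : Nat) : Nat := Nat.rec oneC (fun n _ => Nat.rec zc (fun _ _ => zc2) n) e

/-- The check of the table at a point. -/
def tabOK (i : Nat) : Bool :=
  allB (fun x => Nat.blt (tG i x) 12312 && Nat.beq (tG (tG i x) (flp x)) i) 4 &&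
    (Nat.beq i 0 || (Nat.blt (parG i) i && Nat.blt (ltG i) 4 && Nat.beq (tG (parG i) (ltG i)) i))

/-- The check of a representative. -/
def repOK (i : Nat) : Bool :=
  Nat.beq i 0 || Nat.beq (repG i) (mm (lcG (ltG i)) (repG (parG i)))

/-- The check of the Schreier element of an edge. -/
def edgeOK (u : Nat) : Bool :=
  frc (edgeG u) fun q => frc (Nat.land q 4095) fun l => frc (Nat.shiftRight q 12) fun e =>
    frc (Nat.div u 2) fun i => frc (Nat.mul 2 (Nat.mod u 2)) fun x =>
      Nat.blt l 4080 && Nat.beq (mm (lcG x) (repG i)) (mm (repG (tG i x)) (mm (tb L0big l) (zP e)))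

/-- The code of a word. -/
def wc (lc : Nat → Nat) : List Nat → Nat
  | [] => oneC
  | x :: u => mm (wc lc u) (lc x)

/-- The check of the relators of `J₃`. -/
def relOK (w : List Nat) : Bool := w.all (fun x => Nat.blt x 4) && isZ (wc lcG w)

/-- The check of the position of an element. -/
def decOK (c : Nat) (q : Nat × Nat × Nat) : Bool :=
  Nat.blt q.1 12312 && Nat.blt q.2.1 4080 && Nat.beq c (mm (repG q.1) (mm (tb L0big q.2.1) (zP q.2.2)))

/-! ### The subgroup `L₂(16)` -/

/-- The rows of `L₂(16)`. -/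
def rowsL (s : Nat) : Nat := Nat.rec L0rA (fun _ _ => L0rB) s
/-- The generators of `L₂(16)`. -/
def genL (s : Nat) : Nat := Nat.rec x1C (fun _ _ => x2C) s

/-- The letters of `L₂(16)`. -/
def lcL (x : Nat) : Nat := Nat.rec x1C (fun n _ => Nat.rec x1iC (fun n _ => Nat.rec x2C (fun _ _ => x2iC) n) n) x

/-- The table on the cosets of `C₁₇`. -/
def tL (i x : Nat) : Nat := get 8 255 tLbig (Nat.add (Nat.mul 4 i) x)
/-- The parents. -/
def parL (i : Nat) : Nat := Nat.land (get 10 1023 plLbig i) 255
/-- The letters. -/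
def ltL (i : Nat) : Nat := Nat.shiftRight (get 10 1023 plLbig i) 8
/-- The representatives. -/
def repL (i : Nat) : Nat := tb repLbig i
/-- The element of order `17`. -/
def c17 : Nat := mm x1C x2C

/-- The check of the table at a point. -/
def tabLOK (i : Nat) : Bool :=
  allB (fun x => Nat.blt (tL i x) 240 && Nat.beq (tL (tL i x) (flp x)) i) 4 &&
    (Nat.beq i 0 || (Nat.blt (parL i) i && Nat.blt (ltL i) 4 && Nat.beq (tL (parL i) (ltL i)) i &&
      Nat.beq (repL i) (mm (lcL (ltL i)) (repL (parL i)))))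

/-- The check of an edge. -/
def edgeLOK (u : Nat) : Bool :=
  frc (Nat.div u 2) fun i => frc (Nat.mul 2 (Nat.mod u 2)) fun x =>
    Nat.beq (mm (lcL x) (repL i)) (mm (repL (tL i x)) (pw c17 (get 5 31 skBig u)))

/-- The check of the relators of `L₂(16)`. -/
def relLOK (w : List Nat) : Bool := w.all (fun x => Nat.blt x 4) && Nat.beq (wc lcL w) oneC

/-- The data of a label of `L₂(16)`. -/
def varEL (u : Nat) : Nat := get 20 1048575 varLbig u
/-- The rank of a label of `L₂(16)`. -/
def rkL (u : Nat) : Nat := Nat.land (varEL u) 255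
/-- The relator of a label of `L₂(16)`. -/
def kkL (u : Nat) : Nat := Nat.land (Nat.shiftRight (varEL u) 8) 15
/-- The point of a label of `L₂(16)`. -/
def ssL (u : Nat) : Nat := Nat.shiftRight (varEL u) 12
/-- The mask of a form of `L₂(16)`. -/
def M98 : Nat := Nat.sub (Nat.shiftLeft 1 98) 1
/-- The form of a rank of `L₂(16)`. -/
def formL (r : Nat) : Nat := get 98 M98 formLbig r
/-- The label parameters of `L₂(16)`. -/
def pVLf (j : Nat) : Nat := pVLL.getD j 0
/-- The base for `L₂(16)`. -/
def BL : Nat := 16384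
/-- The error digit for `L₂(16)`. -/
def EL : Nat := Nat.pow BL 7

/-- The check of a label of `L₂(16)`. -/
def varLOK (u : Nat) : Bool :=
  Nat.blt (ssL u) 240 && bdB BL 256 7 (formL (rkL u)) &&
    chkVar tL 2 parL ltL rkL formL kkL ssL pVLf WL offL EL 2 BL 8 6 1 u

end

end Cfsg.Agent.Lib.Compute.J3.MultDefs
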