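import Cfsg.Agent.Lib.Compute.J3.MultDefs

/-!
# The kernel checks of the table of `J₃`
-/

set_option autoImplicit false

namespace Cfsg.Agent.Lib.Compute.J3.MultDefs

open Cfsg.Agent.Lib.Compute.PermCert Cfsg.Agent.Lib.Compute.PeelCert
open Cfsg.Agent.Lib.Compute.J3.Data Cfsg.Agent.Lib.Compute.J3.F4Mat Cfsg.Agent.Lib.Compute.J3.MultData
open Cfsg.Agent.Lib.Compute.J3.Check Cfsg.Agent.Lib.Compute.J3.InvCheck

theorem tabR0 : allB (fun r => tabOK (Nat.add (Nat.mul 1026 0) r)) 1026 = true := by decide +kernel
theorem tabR1 : allB (fun r => tabOK (Nat.add (Nat.mul 1026 1) r)) 1026 = true := by decide +kernel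
theorem tabR2 : allB (fun r => tabOK (Nat.add (Nat.mul 1026 2) r)) 1026 = true := by decide +kernel
theorem tabR3 : allB (fun r => tabOK (Nat.add (Nat.mul 1026 3) r)) 1026 = true := by decide +kernel
theorem tabR4 : allB (fun r => tabOK (Nat.add (Nat.mul 1026 4) r)) 1026 = true := by decide +kernel
theorem tabR5 : allB (fun r => tabOK (Nat.add (Nat.mul 1026 5) r)) 1026 = true := by decide +kernel
theorem tabR6 : allB (fun r => tabOK (Nat.add (Nat.mul 1026 6) r)) 1026 = true := by decide +kernel
theorem tabR7 : allB (fun r => tabOK (Nat.add (Nat.mul 1026 7) r)) 1026 = true := by decide +kernel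
theorem tabR8 : allB (fun r => tabOK (Nat.add (Nat.mul 1026 8) r)) 1026 = true := by decide +kernel
theorem tabR9 : allB (fun r => tabOK (Nat.add (Nat.mul 1026 9) r)) 1026 = true := by decide +kernel
theorem tabR10 : allB (fun r => tabOK (Nat.add (Nat.mul 1026 10) r)) 1026 = true := by decide +kernel
theorem tabR11 : allB (fun r => tabOK (Nat.add (Nat.mul 1026 11) r)) 1026 = true := by decide +kernel

theorem tabR_all : ∀ g < 12, allB (fun r => tabOK (Nat.add (Nat.mul 1026 g) r)) 1026 = true := by
  intro g hg
  interval_cases g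
  · exact tabR0
  · exact tabR1
  · exact tabR2
  · exact tabR3
  · exact tabR4
  · exact tabR5
  · exact tabR6
  · exact tabR7
  · exact tabR8
  · exact tabR9
  · exact tabR10
  · exact tabR11

theorem repR0 : allB (fun r => repOK (Nat.add (Nat.mul 1026 0) r)) 1026 = true := by decide +kernel
theorem repR1 : allB (fun r => repOK (Nat.add (Nat.mul 1026 1) r)) 1026 = true := by decide +kernel
theorem repR2 : allB (fun r => repOK (Nat.add (Nat.mul 1026 2) r)) 1026 = true := by decide +kernel
theorem repR3 : allB (fun r => repOK (Nat.add (Nat.mul 1026 3) r)) 1026 = true := by decide +kernel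
theorem repR4 : allB (fun r => repOK (Nat.add (Nat.mul 1026 4) r)) 1026 = true := by decide +kernel
theorem repR5 : allB (fun r => repOK (Nat.add (Nat.mul 1026 5) r)) 1026 = true := by decide +kernel
theorem repR6 : allB (fun r => repOK (Nat.add (Nat.mul 1026 6) r)) 1026 = true := by decide +kernel
theorem repR7 : allB (fun r => repOK (Nat.add (Nat.mul 1026 7) r)) 1026 = true := by decide +kernel
theorem repR8 : allB (fun r => repOK (Nat.add (Nat.mul 1026 8) r)) 1026 = true := by decide +kernel
theorem repR9 : allB (fun r => repOK (Nat.add (Nat.mul 1026 9) r)) 1026 = true := by decide +kernel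
theorem repR10 : allB (fun r => repOK (Nat.add (Nat.mul 1026 10) r)) 1026 = true := by decide +kernel
theorem repR11 : allB (fun r => repOK (Nat.add (Nat.mul 1026 11) r)) 1026 = true := by decide +kernel

theorem repR_all : ∀ g < 12, allB (fun r => repOK (Nat.add (Nat.mul 1026 g) r)) 1026 = true := by
  intro g hg
  interval_cases g
  · exact repR0
  · exact repR1
  · exact repR2
  · exact repR3
  · exact repR4
  · exact repR5
  · exact repR6
  · exact repR7
  · exact repR8
  · exact repR9
  · exact repR10
  · exact repR11

end Cfsg.Agent.Lib.Compute.J3.MultDefs
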