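import Cfsg.Agent.Lib.Compute.J3.OutThm
import Cfsg.Agent.Lib.Compute.J3.MultVar
import Cfsg.Agent.Lib.Compute.J3.MultEdge
import Cfsg.Agent.Lib.Compute.J3.MultTab
import Cfsg.Agent.Lib.Compute.J3.MultL0
import Cfsg.Agent.Lib.Compute.J3.MultCheck
import Cfsg.Agent.Lib.Compute.SchurU

/-!
# The Schur multiplier of `J₃`

The stem extensions of `J₃` are bounded by linear algebra on the table of the action on the cosets of a subgroup
`L₂(16)`.  The multiplier of `L₂(16)` is trivial, by the odd primes with cyclic Sylow subgroups, and linear algebra mod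
`2` on the table of the action on the cosets of a subgroup of order `17`.
-/

set_option autoImplicit false
set_option linter.unusedSectionVars false
set_option linter.unusedVariables false

namespace Cfsg.Agent.Lib.Compute.J3.MultThm

open Cfsg Cfsg.Agent.Lib.Compute.PermCert Cfsg.Agent.Lib.Compute.PeelCert Cfsg.Agent.Lib.Compute.SchurU
open Cfsg.Agent.Lib.Compute.SchurLin (ltr flp repOf repOf_zero repOf_step map_ltr map_wordEl_ltr Tab expV Cocy exists_cocy
  commutator_eq_top_of_words wordEl_mem_commutator)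
open Cfsg.Agent.Lib.Compute.ToddCoxeterCore (wordEl wordEl_nil wordEl_cons wordEl_append)
open Cfsg.Agent.Lib.Compute.J3.Data Cfsg.Agent.Lib.Compute.J3.F4Mat Cfsg.Agent.Lib.Compute.J3.MultData
open Cfsg.Agent.Lib.Compute.J3.Check Cfsg.Agent.Lib.Compute.J3.Main Cfsg.Agent.Lib.Compute.J3.Chain
open Cfsg.Agent.Lib.Compute.J3.InvCheck Cfsg.Agent.Lib.Compute.J3.OutThm Cfsg.Agent.Lib.Compute.J3.MultDefs

universe u v

/-- A check on ranges gives a check on all numbers below. -/
theorem all_of_rng {f : ℕ → Bool} {bs m : ℕ} (h : ∀ g < m, allB (fun r => f (Nat.add (Nat.mul bs g) r)) bs = true)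
    {i : ℕ} (hi : i < bs * m) : f i = true := by
  have hbs : 0 < bs := by
    rcases Nat.eq_zero_or_pos bs with h0 | h0
    · subst h0
      simp at hi
    · exact h0
  have h1 : i / bs < m := Nat.div_lt_of_lt_mul hi
  have h2 : f (Nat.add (Nat.mul bs (i / bs)) (i % bs)) = true := (allB_iff _ _).mp (h _ h1) (i % bs) (Nat.mod_lt _ hbs)
  have e : Nat.add (Nat.mul bs (i / bs)) (i % bs) = i := Nat.div_add_mod i bs
  rwa [e] at h2

/-! ### The checks in a usable form -/

theorem tab_spec {i : ℕ} (hi : i < 12312) :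
    (∀ x < 2 * 2, tG i x < 12312 ∧ tG (tG i x) (flp x) = i) ∧
      (i ≠ 0 → parG i < i ∧ ltG i < 2 * 2 ∧ tG (parG i) (ltG i) = i) := by
  have h : tabOK i = true := all_of_rng (bs := 1026) (m := 12) tabR_all (by omega)
  simp only [tabOK, Bool.and_eq_true, allB_iff, Nat.blt_eq, Nat.beq_eq, Bool.or_eq_true] at h
  obtain ⟨h1, h2⟩ := h
  refine ⟨fun x hx => h1 x hx, fun h0 => ?_⟩
  rcases h2 with h2 | h2
  · exact absurd h2 h0
  · exact ⟨h2.1.1, h2.1.2, h2.2⟩

theorem rep_spec {i : ℕ} (hi : i < 12312) (h0 : i ≠ 0) : repG i = mm (lcG (ltG i)) (repG (parG i)) := by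
  have h : repOK i = true := all_of_rng (bs := 1026) (m := 12) repR_all (by omega)
  simp only [repOK, Nat.beq_eq, Bool.or_eq_true] at h
  rcases h with h | h
  · exact absurd h h0
  · exact h

theorem edge_spec {i j : ℕ} (hi : i < 12312) (hj : j < 2) :
    ∃ l e, l < 4080 ∧ mm (lcG (2 * j)) (repG i) = mm (repG (tG i (2 * j))) (mm (tb L0big l) (zP e)) := by
  have h : edgeOK (2 * i + j) = true := all_of_rng (bs := 513) (m := 48) edgeR_all (by omega)
  have e1 : Nat.div (2 * i + j) 2 = i := by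
    show (2 * i + j) / 2 = i
    omega
  have e2 : Nat.mul 2 (Nat.mod (2 * i + j) 2) = 2 * j := by
    show 2 * ((2 * i + j) % 2) = 2 * j
    have : (2 * i + j) % 2 = j := by omega
    rw [this]
  simp only [edgeOK, frc_eq, Bool.and_eq_true, Nat.blt_eq, Nat.beq_eq] at h
  rw [e1, e2] at h
  exact ⟨_, _, h.1, h.2⟩

theorem var_spec {u : ℕ} (hu : u < 12312 * 2) : ssG u < 12312 ∧ bdB BB 32768 (8 + 36) (formG (rkG u)) = true ∧
    chkVar tG 2 parG ltG rkG formG kkG ssG pVG WW offC EG 2 BB 10 8 36 u = true := by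
  have h : varOK u = true := all_of_rng (bs := 513) (m := 48) varR_all (by omega)
  simp only [varOK, Bool.and_eq_true, Nat.blt_eq] at h
  exact ⟨h.1.1, h.1.2, h.2⟩

theorem tabL_spec {i : ℕ} (hi : i < 240) :
    (∀ x < 2 * 2, tL i x < 240 ∧ tL (tL i x) (flp x) = i) ∧
      (i ≠ 0 → parL i < i ∧ ltL i < 2 * 2 ∧ tL (parL i) (ltL i) = i ∧ repL i = mm (lcL (ltL i)) (repL (parL i))) := by
  have h : tabLOK i = true := (allB_iff _ _).mp tabL_ok i hi
  simp only [tabLOK, Bool.and_eq_true, allB_iff, Nat.blt_eq, Nat.beq_eq, Bool.or_eq_true] at h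
  obtain ⟨h1, h2⟩ := h
  refine ⟨fun x hx => h1 x hx, fun h0 => ?_⟩
  rcases h2 with h2 | h2
  · exact absurd h2 h0
  · exact ⟨h2.1.1.1, h2.1.1.2, h2.1.2, h2.2⟩

theorem edgeL_spec {i j : ℕ} (hi : i < 240) (hj : j < 2) :
    ∃ k, mm (lcL (2 * j)) (repL i) = mm (repL (tL i (2 * j))) (pw c17 k) := by
  have h : edgeLOK (2 * i + j) = true := (allB_iff _ _).mp edgeL_ok _ (by omega)
  have e1 : Nat.div (2 * i + j) 2 = i := by
    show (2 * i + j) / 2 = i
    omega
  have e2 : Nat.mul 2 (Nat.mod (2 * i + j) 2) = 2 * j := by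
    show 2 * ((2 * i + j) % 2) = 2 * j
    have : (2 * i + j) % 2 = j := by omega
    rw [this]
  simp only [edgeLOK, frc_eq, Nat.beq_eq] at h
  rw [e1, e2] at h
  exact ⟨_, h⟩

/-! ### Codes of elements of subgroups -/

section Codes

variable {Γ : Type u} {A : Type v} [Group Γ] [Monoid A] {S : Setup Γ A} {H : Subgroup Γ}

/-- The code of an element of a subgroup. -/
def Cd (S : Setup Γ A) {H : Subgroup Γ} (x : H) (c : ℕ) : Prop := S.v (x : Γ) = S.d c

theorem Cd.one : Cd S (1 : H) oneC := by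
  show S.v ((1 : H) : Γ) = _
  rw [Subgroup.coe_one, map_one, S.hone]

theorem Cd.mul {x y : H} {a b : ℕ} (hx : Cd S x a) (hy : Cd S y b) : Cd S (x * y) (mm a b) := by
  show S.v ((x * y : H) : Γ) = _
  rw [Subgroup.coe_mul, map_mul, hx, hy, S.hmm]

theorem Cd.eq {x y : H} {a b : ℕ} (hx : Cd S x a) (hy : Cd S y b) (h : a = b) : x = y := by
  apply Subtype.ext
  apply S.hv
  rw [hx, hy, h]

theorem Cd.inv {x : H} {a b : ℕ} (hx : Cd S x a) (hab : mm a b = oneC) : Cd S x⁻¹ b := by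
  show S.v ((x⁻¹ : H) : Γ) = _
  have h1 : S.v ((x⁻¹ : H) : Γ) * S.v (x : Γ) = 1 := by
    rw [← map_mul, ← Subgroup.coe_mul, inv_mul_cancel, Subgroup.coe_one, map_one]
  have h2 : S.d a * S.d b = 1 := by rw [← S.hmm, hab, S.hone]
  calc S.v ((x⁻¹ : H) : Γ) = S.v ((x⁻¹ : H) : Γ) * (S.d a * S.d b) := by rw [h2, mul_one]
    _ = S.d b := by rw [← mul_assoc, ← hx, h1, one_mul]

theorem Cd.pow {x : H} {c : ℕ} (hx : Cd S x c) : ∀ n : ℕ, Cd S (x ^ n) (pw c n) := by
  intro n
  induction n with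
  | zero =>
    rw [pow_zero]
    exact Cd.one
  | succ n ih =>
    rw [pow_succ']
    exact hx.mul ih

theorem Cd.ltr' {g : ℕ → H} {lc : ℕ → ℕ} {n : ℕ} (hg : ∀ j < n, Cd S (g j) (lc (2 * j)))
    (hinv : ∀ j < n, mm (lc (2 * j)) (lc (2 * j + 1)) = oneC) {x : ℕ} (hx : x < 2 * n) : Cd S (ltr g x) (lc x) := by
  have hj : x / 2 < n := by omega
  unfold ltr
  by_cases h : x % 2 = 0
  · rw [if_pos h]
    have h2 : 2 * (x / 2) = x := by omega
    have := hg _ hj
    rwa [h2] at this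
  · rw [if_neg h]
    have h2 : 2 * (x / 2) + 1 = x := by omega
    have h3 := hinv _ hj
    rw [h2] at h3
    exact (hg _ hj).inv h3

theorem Cd.word {g : ℕ → H} {lc : ℕ → ℕ} {n : ℕ} (hg : ∀ j < n, Cd S (g j) (lc (2 * j)))
    (hinv : ∀ j < n, mm (lc (2 * j)) (lc (2 * j + 1)) = oneC) :
    ∀ w : List ℕ, (∀ x ∈ w, x < 2 * n) → Cd S (wordEl (ltr g) w) (wc lc w) := by
  intro w
  induction w with
  | nil => intro _; exact Cd.one
  | cons x u ih =>
    intro hw
    rw [wordEl_cons]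
    exact (ih fun y hy => hw y (by simp [hy])).mul (Cd.ltr' hg hinv (hw x (by simp)))

theorem wc_lt (lc : ℕ → ℕ) (w : List ℕ) : wc lc w < 2 ^ 162 := by
  cases w with
  | nil => exact lt_ok.2.2.2.2
  | cons x u => exact mm_lt _ _

theorem Cd.rep {g : ℕ → H} {lc : ℕ → ℕ} {n N : ℕ} {repC par lt : ℕ → ℕ} (hg : ∀ j < n, Cd S (g j) (lc (2 * j)))
    (hinv : ∀ j < n, mm (lc (2 * j)) (lc (2 * j + 1)) = oneC) (h0 : repC 0 = oneC)
    (hp : ∀ i < N, i ≠ 0 → par i < i ∧ lt i < 2 * n ∧ repC i = mm (lc (lt i)) (repC (par i))) :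
    ∀ i < N, Cd S (repOf g par lt i) (repC i) := by
  intro i
  induction i using Nat.strong_induction_on with
  | _ i ih =>
    intro hi
    by_cases hi0 : i = 0
    · subst hi0
      rw [repOf_zero, h0]
      exact Cd.one
    · obtain ⟨h1, h2, h3⟩ := hp i hi hi0
      rw [repOf_step g par lt hi0 h1, h3]
      exact (Cd.ltr' hg hinv h2).mul (ih _ h1 (by omega))

end Codes

/-! ### The subgroup `L₂(16)` -/

section L0

variable {Γ : Type u} {A : Type v} [Group Γ] [Monoid A] {S : Setup Γ A}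

/-- The entries of a table are elements of the group. -/
theorem table_rep {G : Subgroup Γ} (gen rows : ℕ → ℕ) (big n wr mr wt mt sh mp sp ms tr : ℕ)
    (hgen : ∀ s, S.Rep G (gen s)) (hr : ∀ s, allB (rowTOK big n wr mr (gen s) (rows s)) n = true)
    (ht : allB (treeTOK big n wr mr wt mt sh mp sp ms tr rows) n = true) : ∀ j, j < n → S.Rep G (tb big j) := by
  have hrow : ∀ s i, i < n → get wr mr (rows s) i < n ∧ mm (gen s) (tb big i) = tb big (get wr mr (rows s) i) := by
    intro s i hi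
    have h := (allB_iff _ _).mp (hr s) i hi
    simp only [rowTOK, frc_eq, Bool.and_eq_true, Nat.blt_eq, Nat.beq_eq] at h
    exact h
  refine tree_rep (dT wt mt sh tr) (pT wt mt mp tr) ?_ ?_
  · intro j hj h0
    have h := (allB_iff _ _).mp ht j hj
    rw [treeTOK, h0] at h
    exact Nat.eq_of_beq_eq_true h
  · intro j hj h0
    have h := (allB_iff _ _).mp ht j hj
    have e : ∀ (d : ℕ) (A B : Bool), d ≠ 0 → Nat.rec (motive := fun _ => Bool) A (fun _ _ => B) d = B := by
      intro d A B hd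
      cases d with
      | zero => exact absurd rfl hd
      | succ n => rfl
    rw [treeTOK, e _ _ _ h0] at h
    have h' := h
    simp only [Bool.and_eq_true, Nat.blt_eq, Nat.beq_eq] at h'
    obtain ⟨⟨h1, h2⟩, h3⟩ := h'
    refine ⟨h1, h2, gen (sT wt mt ms sp tr j), hgen _, ?_⟩
    have h4 := (hrow (sT wt mt ms sp tr j) _ h1).2
    rw [h3] at h4
    rw [← S.hmm, h4]

variable (x1 x2 : Γ)

/-- The subgroup `L₂(16)`. -/
abbrev LL : Subgroup Γ := Subgroup.closure {x1, x2}

theorem x1_mem : x1 ∈ LL x1 x2 := Subgroup.subset_closure (Set.mem_insert _ _)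
theorem x2_mem : x2 ∈ LL x1 x2 := Subgroup.subset_closure (Set.mem_insert_of_mem _ rfl)

/-- The generators of `L₂(16)`. -/
noncomputable def gL (j : ℕ) : LL x1 x2 := if j = 0 then ⟨x1, x1_mem x1 x2⟩ else ⟨x2, x2_mem x1 x2⟩

theorem gL_gen (h : LL x1 x2) : h ∈ Subgroup.closure (gL x1 x2 '' Set.Iio 2) := by
  have hle : LL x1 x2 ≤ (Subgroup.closure (gL x1 x2 '' Set.Iio 2)).map (LL x1 x2).subtype := by
    refine (Subgroup.closure_le _).mpr ?_
    rintro _ (rfl | h)
    · exact ⟨gL _ x2 0, Subgroup.subset_closure ⟨0, by norm_num, rfl⟩, by simp [gL]⟩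
    · rw [Set.mem_singleton_iff] at h
      subst h
      exact ⟨gL x1 _ 1, Subgroup.subset_closure ⟨1, by norm_num, rfl⟩, by simp [gL]⟩
  obtain ⟨y, hy, e⟩ := hle h.2
  have : y = h := Subtype.ext e
  rwa [← this]

variable {x1 x2} (h1 : S.v x1 = S.d x1C) (h2 : S.v x2 = S.d x2C)

include h1 h2 in
theorem gL_cd : ∀ j < 2, Cd S (gL x1 x2 j) (lcL (2 * j)) := by
  intro j hj
  interval_cases j
  · have e : ((gL x1 x2 0 : LL x1 x2) : Γ) = x1 := by simp [gL]
    show S.v ((gL x1 x2 0 : LL x1 x2) : Γ) = S.d x1C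
    rw [e]
    exact h1
  · have e : ((gL x1 x2 1 : LL x1 x2) : Γ) = x2 := by simp [gL]
    show S.v ((gL x1 x2 1 : LL x1 x2) : Γ) = S.d x2C
    rw [e]
    exact h2

theorem invL : ∀ j < 2, mm (lcL (2 * j)) (lcL (2 * j + 1)) = oneC := by
  intro j hj
  interval_cases j
  · exact x1_inv
  · exact x2_inv

theorem letL : ∀ k, ∀ x ∈ WL.getD k [], x < 2 * 2 := by
  intro k x hx
  rcases getD_mem_or (W := WL) k with h | h
  · have h3 := List.all_eq_true.mp relL_ok _ h
    simp only [relLOK, Bool.and_eq_true, List.all_eq_true, Nat.blt_eq] at h3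
    exact h3.1 x hx
  · rw [h] at hx
    simp at hx

include h1 h2 in
theorem relL_val (k : ℕ) : wordEl (ltr (gL x1 x2)) (WL.getD k []) = 1 := by
  rcases getD_mem_or (W := WL) k with h | h
  · have h3 := List.all_eq_true.mp relL_ok _ h
    simp only [relLOK, Bool.and_eq_true, List.all_eq_true, Nat.blt_eq, Nat.beq_eq] at h3
    exact (Cd.word (gL_cd h1 h2) invL _ (letL k)).eq Cd.one h3.2
  · rw [h]
    rfl

theorem rowsL_ok (s : ℕ) : allB (rowTOK L0big 4080 12 4095 (genL s) (rowsL s)) 4080 = true := by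
  cases s with
  | zero =>
    exact (allB_iff _ _).mpr fun i hi => all_of_rng (bs := 1020) (m := 4) rowAR_all (by omega)
  | succ n =>
    exact (allB_iff _ _).mpr fun i hi => all_of_rng (bs := 1020) (m := 4) rowBR_all (by omega)

include h1 h2 in
theorem genL_rep (s : ℕ) : S.Rep (LL x1 x2) (genL s) := by
  cases s with
  | zero => exact ⟨x1, x1_mem x1 x2, h1⟩
  | succ n => exact ⟨x2, x2_mem x1 x2, h2⟩

include h1 h2 in
theorem L0_rep : ∀ j, j < 4080 → S.Rep (LL x1 x2) (tb L0big j) :=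
  table_rep genL rowsL L0big 4080 12 4095 18 262143 13 4095 12 1 L0tr (genL_rep h1 h2) rowsL_ok treeL_ok

variable [Finite Γ]

include h1 h2 in
theorem card_LL : Nat.card (LL x1 x2) = 4080 := by
  refine table_card (S := S) rfl genL rowsL L0big 4080 12 4095 18 262143 13 4095 12 1 L0tr L0root (genL_rep h1 h2) ?_
    rowsL_ok treeL_ok sortL_ok rootL_ok.1 rootL_ok.2
  rintro x (rfl | h)
  · exact ⟨0, h1⟩
  · rw [Set.mem_singleton_iff] at h
    rw [h]
    exact ⟨1, h2⟩

include h1 h2 in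
theorem cover_LL {g : Γ} (hg : g ∈ LL x1 x2) : ∃ j, j < 4080 ∧ S.v g = S.d (tb L0big j) := by
  obtain ⟨j, hj, h, hh, e⟩ := cover_of_table S.v (T := fun k => S.d (tb L0big k)) (n := 4080) (j₀ := L0root) (H := ⊥)
    rootL_ok.2 (by
      show S.d (tb L0big L0root) = 1
      rw [rootL_ok.1, S.hone]) (by
      rintro x hx j hj
      have hx' : ∃ s, S.v x = S.d (genL s) := by
        rcases hx with rfl | hx
        · exact ⟨0, h1⟩
        · rw [Set.mem_singleton_iff] at hx
          rw [hx]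
          exact ⟨1, h2⟩
      obtain ⟨s, e⟩ := hx'
      have h := (allB_iff _ _).mp (rowsL_ok s) j hj
      simp only [rowTOK, frc_eq, Bool.and_eq_true, Nat.blt_eq, Nat.beq_eq] at h
      exact ⟨_, h.1, 1, Subgroup.one_mem _, by rw [e, ← S.hmm, h.2, map_one, mul_one]⟩) hg
  rw [Subgroup.mem_bot] at hh
  rw [hh, map_one, mul_one] at e
  exact ⟨j, hj, e⟩

/-! The subgroup of order `17`. -/

variable (x1 x2) in
/-- The element of order `17`. -/
noncomputable def cE : LL x1 x2 := gL x1 x2 0 * gL x1 x2 1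

include h1 h2 in
theorem cE_cd : Cd S (cE x1 x2) c17 := (gL_cd h1 h2 0 (by norm_num)).mul (gL_cd h1 h2 1 (by norm_num))

include h1 h2 in
theorem cE_order : orderOf (cE x1 x2) = 17 := by
  have f17 : Fact (Nat.Prime 17) := ⟨by norm_num⟩
  refine orderOf_eq_prime ?_ ?_
  · exact ((cE_cd h1 h2).pow 17).eq Cd.one c17_pow
  · intro h
    apply c17_ne
    apply S.hinj _ _ c17_lt lt_ok.2.2.2.2
    have h3 := cE_cd h1 h2
    rw [h] at h3
    rw [← h3]
    have h4 : Cd S (1 : LL x1 x2) oneC := Cd.one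
    exact h4

include h1 h2 in
theorem card_cosets : Nat.card ((LL x1 x2) ⧸ Subgroup.zpowers (cE x1 x2)) = 240 := by
  have h3 := Subgroup.card_mul_index (Subgroup.zpowers (cE x1 x2))
  rw [Nat.card_zpowers, cE_order h1 h2, card_LL h1 h2] at h3
  have h4 : (Subgroup.zpowers (cE x1 x2)).index = 240 := by omega
  exact h4

theorem hltL : ∀ i < 240, ∀ x < 2 * 2, tL i x < 240 := fun i hi x hx => ((tabL_spec hi).1 x hx).1
theorem hflpL : ∀ i < 240, ∀ x < 2 * 2, tL (tL i x) (flp x) = i := fun i hi x hx => ((tabL_spec hi).1 x hx).2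
theorem hparL : ∀ i < 240, i ≠ 0 → parL i < i ∧ ltL i < 2 * 2 ∧ tL (parL i) (ltL i) = i := fun i hi h0 => by
  obtain ⟨a, b, c, _⟩ := (tabL_spec hi).2 h0
  exact ⟨a, b, c⟩

include h1 h2 in
theorem repL_cd : ∀ i < 240, Cd S (repOf (gL x1 x2) parL ltL i) (repL i) :=
  Cd.rep (gL_cd h1 h2) invL repL_zero fun i hi h0 => by
    obtain ⟨a, b, _, c⟩ := (tabL_spec hi).2 h0
    exact ⟨a, b, c⟩

theorem BL_eq : BL = 16384 := rfl

theorem varL_spec {u : ℕ} (hu : u < 240 * 2) : ssL u < 240 ∧ bdB BL 256 (6 + 1) (formL (rkL u)) = true ∧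
    chkVar tL 2 parL ltL rkL formL kkL ssL pVLf WL offL EL 2 BL 8 6 1 u = true := by
  have h : varLOK u = true := (allB_iff _ _).mp varL_ok u hu
  simp only [varLOK, Bool.and_eq_true, Nat.blt_eq] at h
  exact ⟨h.1.1, h.1.2, h.2⟩

theorem lenL : ∀ k, (WL.getD k []).length ≤ 34 := by
  intro k
  rcases getD_mem_or (W := WL) k with h | h
  · exact lenWL _ h
  · rw [h]
    simp

/-- The points of `L₂(16)`. -/
noncomputable def ωL (x1 x2 : Γ) (i : ℕ) : (LL x1 x2) ⧸ Subgroup.zpowers (cE x1 x2) :=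
  ((repOf (gL x1 x2) parL ltL i : LL x1 x2) : (LL x1 x2) ⧸ Subgroup.zpowers (cE x1 x2))

include h1 h2 in
theorem tabL_tab : Tab (gL x1 x2) (ωL x1 x2) 2 240 tL parL ltL := by
  refine tab_of_count _ (gL_gen x1 x2) (card_cosets h1 h2) (by norm_num) hltL hflpL hparL ?_
  intro i hi j hj
  obtain ⟨k, hk⟩ := edgeL_spec hi hj
  have h3 := (((gL_cd h1 h2 j hj).mul (repL_cd h1 h2 i hi))).eq
    ((repL_cd h1 h2 _ (hltL i hi (2 * j) (by omega))).mul ((cE_cd h1 h2).pow k)) hk
  rw [h3, inv_mul_cancel_left]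
  exact pow_mem (Subgroup.mem_zpowers _) _

theorem stabL : MulAction.stabilizer (LL x1 x2) (ωL x1 x2 0) = Subgroup.zpowers (cE x1 x2) := by
  have h3 : ωL x1 x2 0 = ((1 : LL x1 x2) : (LL x1 x2) ⧸ Subgroup.zpowers (cE x1 x2)) := by
    unfold ωL
    rw [repOf_zero]
  rw [h3]
  exact MulAction.stabilizer_quotient _

include h1 h2 in
/-- `L₂(16)` is perfect. -/
theorem perf_LL : commutator (LL x1 x2) = ⊤ := by
  refine commutator_eq_top_of_words (C := fun j => (WL.getD j []).dropLast) (gL_gen x1 x2) ?_ ?_ exvL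
  · intro j hj
    have hlet : ∀ x ∈ (WL.getD j []).dropLast, x < 2 * 2 := fun x hx => letL j x (List.mem_of_mem_dropLast hx)
    refine (Cd.word (gL_cd h1 h2) invL _ hlet).eq (gL_cd h1 h2 j hj) ?_
    interval_cases j
    · exact wcL0
    · exact wcL1
  · intro j _ x hx
    exact letL j x (List.mem_of_mem_dropLast hx)

include h1 h2 in
/-- The multiplier of `L₂(16)` is trivial. -/
theorem trivM_LL : TrivM (LL x1 x2) := by
  intro Γ' _ _ σ hstem
  have hperf := perf_LL h1 h2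
  have hH : commutator Γ' = ⊤ := commutator_top_of_stem hstem hperf
  have hcard : Nat.card (LL x1 x2) = 4080 := card_LL h1 h2
  have hp17 : Fact (Nat.Prime 17) := ⟨by norm_num⟩
  have h17 : ¬ 17 ∣ Nat.card σ.ker :=
    Cfsg.Agent.S0102.result hperf (sylow_cyclic_of_not_sq (by rw [hcard]; norm_num)) σ hstem.1 hstem.2.1 hH
  have c17' : Nat.Coprime (Nat.card σ.ker) 17 := ((Nat.Prime.coprime_iff_not_dvd hp17.out).2 h17).symm
  have hcstab : Nat.card (MulAction.stabilizer (LL x1 x2) (ωL x1 x2 0)) = 17 := by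
    rw [stabL, Nat.card_zpowers, cE_order h1 h2]
  obtain ⟨s, hs⟩ := exists_section_of_coprime σ hstem.1 (MulAction.stabilizer (LL x1 x2) (ωL x1 x2 0))
    (by rw [hcstab]; exact c17')
  obtain ⟨z, rr, c⟩ := exists_cocy hstem (tabL_tab h1 h2) (gL_gen x1 x2) letL (relL_val h1 h2)
    (fun k hk => by
      interval_cases k
      · exact ⟨_, exL0⟩
      · exact ⟨_, exL1⟩) exvL s hs
  let _ : CommGroup σ.ker :=
    { (inferInstance : Group σ.ker) with
      mul_comm := fun p q => Subtype.ext (Subgroup.mem_center_iff.mp (hstem.2.1 p.2) (q : Γ')).symm }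
  obtain ⟨u, hu, hgen⟩ := peel_final (A := σ.ker) (par := parL) (lt := ltL) (rk := rkL) (formT := formL) (kk := kkL)
    (ss := ssL) (pV := pVLf) (off := offL) (E := EL) (B := BL) (kmax := 8) (R := 6) (c0 := 1) (a := 256) (Lm := 34)
    (a2 := 17) c (by norm_num) hltL letL
    (fun i hi h0 => by
      obtain ⟨a, b, c⟩ := hparL i hi h0
      exact ⟨by omega, b, c⟩)
    (by rw [BL_eq]; norm_num) hEL (by norm_num) (fun u hu => (varL_spec hu).1) (by norm_num) (by rw [BL_eq]; norm_num)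
    (by rw [BL_eq]; norm_num) lenL hoffL (fun u hu => (varL_spec hu).2.1) (fun u hu => (varL_spec hu).2.2) relsL_ok ordL_ok
    tgtL_ok covL
  have hu1 : u = 1 := by
    by_contra hne
    have h8 : orderOf u = 17 := orderOf_eq_prime hu hne
    apply h17
    rw [← h8]
    exact orderOf_dvd_natCard u
  rw [injective_iff_map_eq_one]
  intro a ha
  have h9 := hgen ⟨a, ha⟩
  rw [hu1, Subgroup.zpowers_one_eq_bot, Subgroup.mem_bot] at h9
  exact congrArg Subtype.val h9

end L0

/-! ### The group `J₃` -/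

section M

variable {Γ : Type u} {A : Type v} [Group Γ] [Monoid A] {S : Setup Γ A}

/-- The elements of the triple cover which are used. -/
structure Els (S : Setup Γ A) where
  /-- The first generator. -/
  aM : S.M
  /-- The second generator. -/
  bM : S.M
  ha : Cd S aM aC
  hb : Cd S bM bC
  /-- The first generator of `L₂(16)`. -/
  x1 : Γ
  /-- The second generator of `L₂(16)`. -/
  x2 : Γ
  h1 : S.v x1 = S.d x1C
  h2 : S.v x2 = S.d x2C
  hx1 : x1 ∈ S.M
  hx2 : x2 ∈ S.M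
  /-- The scalar. -/
  z' : S.M
  hz : Cd S z' zc
  hzc : z' ∈ Subgroup.center S.M
  hord : orderOf z' = 3

variable [Finite Γ]

theorem exists_els (S : Setup Γ A) : Nonempty (Els S) := by
  obtain ⟨L, hLM, _, hT1, hT2⟩ := chain_exists S
  obtain ⟨a, ha, ea⟩ := rep_of_sift hLM hT1 hT2 sift_a_ok
  obtain ⟨b, hb, eb⟩ := rep_of_sift hLM hT1 hT2 sift_b_ok
  obtain ⟨x1, hx1, e1⟩ := rep_of_sift hLM hT1 hT2 sift_x1_ok
  obtain ⟨x2, hx2, e2⟩ := rep_of_sift hLM hT1 hT2 sift_x2_ok
  obtain ⟨z', ez, hzc, hord⟩ := central_exists S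
  exact ⟨⟨⟨a, ha⟩, ⟨b, hb⟩, ea, eb, x1, x2, e1, e2, hx1, hx2, z', ez, hzc, hord⟩⟩

variable (E : Els S)

/-- The generators in the cover. -/
noncomputable def gM (j : ℕ) : S.M := if j = 0 then E.aM else E.bM

/-- The generators of `J₃`. -/
noncomputable def gG (j : ℕ) : S.M ⧸ Subgroup.center S.M := qM S (gM E j)

theorem gM_cd : ∀ j < 2, Cd S (gM E j) (lcG (2 * j)) := by
  intro j hj
  interval_cases j
  · have : gM E 0 = E.aM := by simp [gM]
    rw [this]
    exact E.ha
  · have : gM E 1 = E.bM := by simp [gM]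
    rw [this]
    exact E.hb

theorem invG : ∀ j < 2, mm (lcG (2 * j)) (lcG (2 * j + 1)) = oneC := by
  intro j hj
  interval_cases j
  · exact a_inv
  · exact b_inv

theorem letG : ∀ k, ∀ x ∈ WW.getD k [], x < 2 * 2 := by
  intro k x hx
  rcases getD_mem_or (W := WW) k with h | h
  · have h3 := List.all_eq_true.mp relW_ok _ h
    simp only [relOK, Bool.and_eq_true, List.all_eq_true, Nat.blt_eq] at h3
    exact h3.1 x hx
  · rw [h] at hx
    simp at hx

theorem lenG : ∀ k, (WW.getD k []).length ≤ 54 := by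
  intro k
  rcases getD_mem_or (W := WW) k with h | h
  · exact lenW _ h
  · rw [h]
    simp

theorem map_word (w : List ℕ) : qM S (wordEl (ltr (gM E)) w) = wordEl (ltr (gG E)) w :=
  map_wordEl_ltr (qM S) (gM E) w

theorem map_rep (i : ℕ) : qM S (repOf (gM E) parG ltG i) = repOf (gG E) parG ltG i :=
  map_repOf (qM S) (gM E) parG ltG i

theorem repM_cd : ∀ i < 12312, Cd S (repOf (gM E) parG ltG i) (repG i) :=
  Cd.rep (gM_cd E) invG repG_zero fun i hi h0 => by
    obtain ⟨a, b, _⟩ := (tab_spec hi).2 h0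
    exact ⟨a, b, rep_spec hi h0⟩

include E in
/-- The powers of the scalar are in the center. -/
theorem exists_scalar (e : ℕ) : ∃ x : S.M, Cd S x (zP e) ∧ qM S x = 1 := by
  have hq : qM S E.z' = 1 := (QuotientGroup.eq_one_iff _).mpr E.hzc
  cases e with
  | zero => exact ⟨1, Cd.one, map_one _⟩
  | succ e =>
    cases e with
    | zero => exact ⟨E.z', E.hz, hq⟩
    | succ e => exact ⟨E.z' * E.z', E.hz.mul E.hz, by rw [map_mul, hq, one_mul]⟩

theorem LL_le : LL E.x1 E.x2 ≤ S.M := by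
  refine (Subgroup.closure_le _).mpr ?_
  rintro _ (rfl | h)
  · exact E.hx1
  · rw [Set.mem_singleton_iff] at h
    rw [h]
    exact E.hx2

/-- The map from `L₂(16)` to `J₃`. -/
noncomputable def φ : LL E.x1 E.x2 →* S.M ⧸ Subgroup.center S.M := (qM S).comp (Subgroup.inclusion (LL_le E))

theorem φ_inj : Function.Injective (φ E) := by
  rw [injective_iff_map_eq_one]
  rintro ⟨y, hy⟩ h
  obtain ⟨j, hj, e⟩ := cover_LL E.h1 E.h2 hy
  have h3 : vM S (Subgroup.inclusion (LL_le E) ⟨y, hy⟩) = S.d (tb L0big j) := e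
  have h4 := (qM_eq_one _ h3 (tb_lt _ _)).mp h
  have h5 := (allB_iff _ _).mp noZ_ok j hj
  simp only [Bool.or_eq_true, Bool.not_eq_true', Nat.beq_eq] at h5
  rcases h5 with h5 | h5
  · rw [h4] at h5
    exact absurd h5 (by simp)
  · apply Subtype.ext
    apply S.hv
    show S.v y = S.v ((1 : LL E.x1 E.x2) : Γ)
    rw [e, h5, Subgroup.coe_one, map_one, S.hone]

/-- The subgroup `L₂(16)` of `J₃`. -/
noncomputable def Lq : Subgroup (S.M ⧸ Subgroup.center S.M) := (φ E).range

/-- The subgroup `L₂(16)` of `J₃` is isomorphic to the one in the cover. -/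
noncomputable def Leq : LL E.x1 E.x2 ≃* Lq E := MonoidHom.ofInjective (φ_inj E)

theorem card_Lq : Nat.card (Lq E) = 4080 := by
  rw [← Nat.card_congr (Leq E).toEquiv]
  exact card_LL E.h1 E.h2

theorem card_cosets_G : Nat.card ((S.M ⧸ Subgroup.center S.M) ⧸ Lq E) = 12312 := by
  have h3 := Subgroup.card_mul_index (Lq E)
  rw [card_Lq, (main S).2.2.1] at h3
  have h4 : (Lq E).index = 12312 := by omega
  exact h4

/-- A code equation gives a Schreier element. -/
theorem schreier_of {x r r' : S.M} {cx cr cr' l e : ℕ} (hx : Cd S x cx) (hr : Cd S r cr) (hr' : Cd S r' cr') (hl : l < 4080)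
    (h : mm cx cr = mm cr' (mm (tb L0big l) (zP e))) : ∃ y, qM S x * qM S r = qM S r' * φ E y := by
  obtain ⟨y, hy, ey⟩ := L0_rep E.h1 E.h2 l hl
  obtain ⟨z, hz, hqz⟩ := exists_scalar E e
  refine ⟨⟨y, hy⟩, ?_⟩
  have hy' : Cd S (Subgroup.inclusion (LL_le E) ⟨y, hy⟩) (tb L0big l) := ey
  have h3 := (hx.mul hr).eq (hr'.mul (hy'.mul hz)) h
  have h4 := congrArg (qM S) h3
  rw [map_mul, map_mul, map_mul, hqz, mul_one] at h4
  exact h4

theorem hltG : ∀ i < 12312, ∀ x < 2 * 2, tG i x < 12312 := fun i hi x hx => ((tab_spec hi).1 x hx).1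
theorem hflpG : ∀ i < 12312, ∀ x < 2 * 2, tG (tG i x) (flp x) = i := fun i hi x hx => ((tab_spec hi).1 x hx).2
theorem hparG : ∀ i < 12312, i ≠ 0 → parG i < i ∧ ltG i < 2 * 2 ∧ tG (parG i) (ltG i) = i := fun i hi h0 =>
  (tab_spec hi).2 h0

theorem hS_G : ∀ i < 12312, ∀ j < 2, (repOf (gG E) parG ltG (tG i (2 * j)))⁻¹ * (gG E j * repOf (gG E) parG ltG i) ∈ Lq E := by
  intro i hi j hj
  obtain ⟨l, e, hl, h⟩ := edge_spec hi hj
  obtain ⟨y, hy⟩ := schreier_of E (gM_cd E j hj) (repM_cd E i hi) (repM_cd E _ (hltG i hi _ (by omega))) hl h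
  rw [map_rep, map_rep] at hy
  have h3 : gG E j * repOf (gG E) parG ltG i = repOf (gG E) parG ltG (tG i (2 * j)) * φ E y := hy
  rw [h3, inv_mul_cancel_left]
  exact ⟨y, rfl⟩

/-- The generators generate `J₃`. -/
theorem gG_gen (h : S.M ⧸ Subgroup.center S.M) : h ∈ Subgroup.closure (gG E '' Set.Iio 2) := by
  set H := Subgroup.closure (gG E '' Set.Iio 2) with hH
  have hword : ∀ w : List ℕ, (∀ x ∈ w, x < 2 * 2) → wordEl (ltr (gG E)) w ∈ H := fun w hw =>
    wordEl_mem_closure (gG E) hw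
  -- the generators of `L₂(16)`
  have hX : ∀ {w : List ℕ} {c : ℕ} {e : ℕ} {x : S.M}, (∀ x ∈ w, x < 2 * 2) → wc lcG w = mm c (zP e) → Cd S x c →
      qM S x ∈ H := by
    intro w c e x hw hc hx
    obtain ⟨z, hz, hqz⟩ := exists_scalar E e
    have h3 := (Cd.word (gM_cd E) invG w hw).eq (hx.mul hz) hc
    have h4 := congrArg (qM S) h3
    rw [map_word, map_mul, hqz, mul_one] at h4
    rw [← h4]
    exact hword w hw
  have hφ : ∀ y : LL E.x1 E.x2, φ E y ∈ H := by
    intro y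
    have h3 : Subgroup.closure (gL E.x1 E.x2 '' Set.Iio 2) ≤ H.comap (φ E) := by
      refine (Subgroup.closure_le _).mpr ?_
      rintro _ ⟨j, hj, rfl⟩
      have hj' : j < 2 := hj
      interval_cases j
      · exact hX wX1_ok.2 wX1_ok.1 (x := ⟨E.x1, E.hx1⟩) E.h1 |> fun h => by simpa [φ, gL, Subgroup.inclusion] using h
      · exact hX wX2_ok.2 wX2_ok.1 (x := ⟨E.x2, E.hx2⟩) E.h2 |> fun h => by simpa [φ, gL, Subgroup.inclusion] using h
    exact h3 (gL_gen E.x1 E.x2 y)
  have hrep : ∀ i < 12312, repOf (gG E) parG ltG i ∈ H :=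
    repOf_mem_closure (gG E) parG ltG fun i hi h0 => by
      obtain ⟨a, b, _⟩ := hparG i hi h0
      exact ⟨a, b⟩
  have hdec : ∀ {c : ℕ} {q : ℕ × ℕ × ℕ} {x : S.M}, decOK c q = true → Cd S x c → qM S x ∈ H := by
    intro c q x hq hx
    simp only [decOK, Bool.and_eq_true, Nat.blt_eq, Nat.beq_eq] at hq
    obtain ⟨⟨h1, h2⟩, h3⟩ := hq
    obtain ⟨y, hy, ey⟩ := L0_rep E.h1 E.h2 _ h2
    obtain ⟨z, hz, hqz⟩ := exists_scalar E q.2.2
    have hy' : Cd S (Subgroup.inclusion (LL_le E) ⟨y, hy⟩) (tb L0big q.2.1) := ey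
    have h4 := hx.eq ((repM_cd E _ h1).mul (hy'.mul hz)) h3
    rw [h4, map_mul, map_mul, hqz, mul_one, map_rep]
    exact mul_mem (hrep _ h1) (hφ ⟨y, hy⟩)
  obtain ⟨x, rfl⟩ := QuotientGroup.mk'_surjective (Subgroup.center S.M) h
  have h5 := M_ind (S := S) (H.comap (qM S)) (hdec decA_ok S.hgA) (hdec decB_ok S.hgB) x
  exact h5

/-- The points of `J₃`. -/
noncomputable def ωG (i : ℕ) : (S.M ⧸ Subgroup.center S.M) ⧸ Lq E :=
  ((repOf (gG E) parG ltG i : S.M ⧸ Subgroup.center S.M) : (S.M ⧸ Subgroup.center S.M) ⧸ Lq E)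

theorem tabG : Tab (gG E) (ωG E) 2 12312 tG parG ltG :=
  tab_of_count _ (gG_gen E) (card_cosets_G E) (by norm_num) hltG hflpG hparG (hS_G E)

theorem stabG : MulAction.stabilizer (S.M ⧸ Subgroup.center S.M) (ωG E 0) = Lq E := by
  have h3 : ωG E 0 = ((1 : S.M ⧸ Subgroup.center S.M) : (S.M ⧸ Subgroup.center S.M) ⧸ Lq E) := by
    unfold ωG
    rw [repOf_zero]
  rw [h3]
  exact MulAction.stabilizer_quotient _

theorem relG_val (k : ℕ) : wordEl (ltr (gG E)) (WW.getD k []) = 1 := by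
  rcases getD_mem_or (W := WW) k with h | h
  · have h3 := List.all_eq_true.mp relW_ok _ h
    simp only [relOK, Bool.and_eq_true, List.all_eq_true, Nat.blt_eq] at h3
    have hc : Cd S (wordEl (ltr (gM E)) (WW.getD k [])) (wc lcG (WW.getD k [])) :=
      Cd.word (gM_cd E) invG _ (letG k)
    rw [← map_word]
    refine (qM_eq_one _ hc ?_).mpr h3.2
    exact wc_lt _ _
  · rw [h]
    rfl

theorem BB_eq : BB = 2097152 := rfl

include E in
/-- All stem extensions of `J₃` have a kernel which is a quotient of a group of order three. -/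
theorem upper (Γ' : Type u) [Group Γ'] [Finite Γ'] (σ : Γ' →* S.M ⧸ Subgroup.center S.M) (hstem : IsStemExtension σ) :
    ∃ π : Multiplicative (ZMod 3) →* σ.ker, Function.Surjective π := by
  have hT : TrivM (MulAction.stabilizer (S.M ⧸ Subgroup.center S.M) (ωG E 0)) := by
    rw [stabG]
    exact TrivM.of_equiv (Leq E).symm (trivM_LL E.h1 E.h2)
  have hP : commutator (MulAction.stabilizer (S.M ⧸ Subgroup.center S.M) (ωG E 0)) = ⊤ := by
    rw [stabG]
    exact commutator_top_of_equiv (Leq E).symm (perf_LL E.h1 E.h2)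
  obtain ⟨s, hs⟩ := exists_section_of_perfect σ hstem.1 hstem.2.1 _ hP hT
  obtain ⟨z, rr, c⟩ := exists_cocy hstem (tabG E) (gG_gen E) letG (relG_val E)
    (fun k hk => by
      interval_cases k
      · exact ⟨_, exW0⟩
      · exact ⟨_, exW1⟩) exvW s hs
  let _ : CommGroup σ.ker :=
    { (inferInstance : Group σ.ker) with
      mul_comm := fun p q => Subtype.ext (Subgroup.mem_center_iff.mp (hstem.2.1 p.2) (q : Γ')).symm }
  obtain ⟨u, hu, hgen⟩ := peel_final (A := σ.ker) (par := parG) (lt := ltG) (rk := rkG) (formT := formG) (kk := kkG)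
    (ss := ssG) (pV := pVG) (off := offC) (E := EG) (B := BB) (kmax := 10) (R := 8) (c0 := 36) (a := 32768) (Lm := 54)
    (a2 := 302) c (by norm_num) hltG letG
    (fun i hi h0 => by
      obtain ⟨a, b, c⟩ := hparG i hi h0
      exact ⟨by omega, b, c⟩)
    (by rw [BB_eq]; norm_num) hEG (by norm_num) (fun u hu => (var_spec hu).1) (by norm_num) (by rw [BB_eq]; norm_num)
    (by rw [BB_eq]; norm_num) lenG hoffG (fun u hu => (var_spec hu).2.1) (fun u hu => (var_spec hu).2.2) relsG_ok ordG_ok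
    tgtG_ok covG
  exact exists_surj_of_cyclic hu hgen

include E in
/-- The triple cover is perfect over its center. -/
theorem center_le_comm : Subgroup.center S.M ≤ commutator S.M := by
  have hgM : ∀ j < 2, gM E j ∈ commutator S.M := by
    intro j hj
    have hlet : ∀ x ∈ (WW.getD j []).dropLast, x < 2 * 2 := fun x hx => letG j x (List.mem_of_mem_dropLast hx)
    have h1 := wordEl_mem_commutator (n := 2) (gM E) _ hlet (exvW j hj)
    have h2 : wordEl (ltr (gM E)) ((WW.getD j []).dropLast) = gM E j := by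
      refine (Cd.word (gM_cd E) invG _ hlet).eq (gM_cd E j hj) ?_
      interval_cases j
      · exact wcW0
      · exact wcW1
    rwa [h2] at h1
  have hw : ∀ w : List ℕ, (∀ x ∈ w, x < 2 * 2) → wordEl (ltr (gM E)) w ∈ commutator S.M := by
    intro w hw
    refine (Subgroup.closure_le _).mpr ?_ (wordEl_mem_closure (gM E) hw)
    rintro _ ⟨j, hj, rfl⟩
    exact hgM j hj
  have hz2 := hw _ (letG 5)
  have hcd : Cd S (wordEl (ltr (gM E)) (WW.getD 5 [])) (wc lcG (WW.getD 5 [])) := Cd.word (gM_cd E) invG _ (letG 5)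
  have h3 : E.z' = wordEl (ltr (gM E)) (WW.getD 5 []) * wordEl (ltr (gM E)) (WW.getD 5 []) :=
    E.hz.eq (hcd.mul hcd) (by rw [wcW5, zc2_sq])
  have hz' : E.z' ∈ commutator S.M := by
    rw [h3]
    exact mul_mem hz2 hz2
  intro c hc
  have hcard : Nat.card (Subgroup.center S.M) = 3 := (main S).1
  have hzp : Subgroup.zpowers E.z' = Subgroup.center S.M := by
    apply Subgroup.eq_of_le_of_card_ge
    · exact (Subgroup.zpowers_le).mpr E.hzc
    · rw [hcard, Nat.card_zpowers, E.hord]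
  rw [← hzp] at hc
  exact (Subgroup.zpowers_le.mpr hz') hc

/-- The Schur multiplier of the central quotient of the group is cyclic of order three. -/
theorem mult_main (S : Setup Γ A) : HasCyclicSchurMultiplier (S.M ⧸ Subgroup.center S.M) 3 := by
  obtain ⟨E⟩ := exists_els S
  have hker : (qM S).ker = Subgroup.center S.M := QuotientGroup.ker_mk' _
  refine ⟨⟨S.M, inferInstance, inferInstance, qM S, ⟨QuotientGroup.mk'_surjective _, ?_, ?_⟩, ?_⟩,
    fun Γ' _ _ σ hσ => upper E Γ' σ hσ⟩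
  · rw [hker]
  · rw [hker]
    exact center_le_comm E
  · have f3 : Fact (Nat.Prime 3) := ⟨by norm_num⟩
    have h1 : Nat.card (qM S).ker = 3 := by
      rw [hker]
      exact (main S).1
    have h2 : Nat.card (Multiplicative (ZMod 3)) = 3 := by
      rw [Nat.card_eq_fintype_card]
      exact ZMod.card 3
    exact ⟨mulEquivOfPrimeCardEq h1 h2⟩

end M

end Cfsg.Agent.Lib.Compute.J3.MultThm
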