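import Cfsg.Agent.Lib.Compute.J3.OrbCheck

/-!
# Orbits of the triple cover of `J₃` on the vectors and lines of its natural module
-/

set_option autoImplicit false

namespace Cfsg.Agent.Lib.Compute.J3.Orbits

open scoped MatrixGroups Matrix
open Cfsg.Spor
open Cfsg.Agent.Lib.Compute.PermCert
open Cfsg.Agent.Lib.Compute.J3.Data Cfsg.Agent.Lib.Compute.J3.F4Mat Cfsg.Agent.Lib.Compute.J3.OrbData
open Cfsg.Agent.Lib.Compute.J3.Inst Cfsg.Agent.Lib.Compute.J3.OrbCheck Cfsg.Agent.Lib.Compute.J3.Main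
open Cfsg.Agent.Lib.Compute.J3.Check Cfsg.Agent.Lib.Compute.J3.Chain

/-! ### The checks in a usable form -/

theorem treeV_spec {c : ℕ} (h : treeV c (oe c) = true) :
    (od c = 0 ∧ c = rootO (oo c)) ∨
      (od c ≠ 0 ∧ oo (ap (ol c) c) = oo c ∧ od (ap (ol c) c) < od c) := by
  unfold treeV at h
  by_cases h0 : ed (oe c) = 0
  · left
    rw [h0] at h
    exact ⟨h0, Nat.eq_of_beq_eq_true h⟩
  · right
    have e : ∀ (d : ℕ) (A B : Bool), d ≠ 0 → Nat.rec (motive := fun _ => Bool) A (fun _ _ => B) d = B := by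
      intro d A B hd
      cases d with
      | zero => exact absurd rfl hd
      | succ n => rfl
    rw [e _ _ _ h0, frc_eq] at h
    simp only [Bool.and_eq_true, Nat.blt_eq, Nat.beq_eq] at h
    exact ⟨h0, h.1, h.2⟩

theorem eo_cases (e : ℕ) : eo e = 0 ∨ eo e = 1 ∨ eo e = 2 ∨ eo e = 3 := by
  have h : Nat.land e 3 ≤ 3 := Nat.and_le_right
  have h2 : eo e ≤ 3 := h
  omega

theorem chk_spec {c : ℕ} (hc : c < 2 ^ 18) :
    (oo c ≠ 0 → (od c = 0 ∧ c = rootO (oo c)) ∨ (od c ≠ 0 ∧ oo (ap (ol c) c) = oo c ∧ od (ap (ol c) c) < od c)) ∧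
    (oo c = 1 → oo (ap 0 c) = 1 ∧ oo (ap 1 c) = 1 ∧ oo (wr c) = 1) ∧
    (oo c ≠ 2 → c ≠ 0 → parity c = 1) := by
  have h := chkV_all hc
  rw [chkV, frc_eq] at h
  have hiso : ∀ c, isoV c = true → c ≠ 0 → parity c = 1 := by
    intro c h1 h2
    obtain ⟨m, rfl⟩ := Nat.exists_eq_succ_of_ne_zero h2
    exact Nat.eq_of_beq_eq_true h1
  have ho : oo c = eo (oe c) := rfl
  rcases eo_cases (oe c) with h0 | h0 | h0 | h0
  · rw [h0] at h
    rw [ho, h0]
    refine ⟨fun h => absurd rfl h, fun h => absurd h (by norm_num), fun _ => hiso c h⟩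
  · rw [h0] at h
    have h' : (treeV c (oe c) && closV c && isoV c) = true := h
    simp only [Bool.and_eq_true] at h'
    obtain ⟨⟨h1, h2⟩, h3⟩ := h'
    rw [ho, h0]
    refine ⟨?_, ?_, fun _ => hiso c h3⟩
    · intro _
      have := treeV_spec h1
      rwa [ho, h0] at this
    · intro _
      simp only [closV, Bool.and_eq_true, Nat.beq_eq] at h2
      exact ⟨h2.1.1, h2.1.2, h2.2⟩
  · rw [h0] at h
    have h1 : treeV c (oe c) = true := h
    rw [ho, h0]
    refine ⟨?_, fun h => absurd h (by norm_num), fun h => absurd rfl h⟩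
    intro _
    have := treeV_spec h1
    rwa [ho, h0] at this
  · rw [h0] at h
    exact absurd h (by
      show ¬ (false = true)
      simp)

/-! ### Counting -/

theorem card_O1 : ((Finset.range (2 ^ 18)).filter fun c => oo c = 1).card = 69768 := by
  rw [Finset.card_filter]
  have key : ∀ g, ∑ c ∈ Finset.range (32768 * g), (if oo c = 1 then 1 else 0) =
      ∑ i ∈ Finset.range g, cntG i := by
    intro g
    induction g with
    | zero => simp
    | succ g ih =>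
      have h3 : cntG g = ∑ c ∈ Finset.range 32768, (if oo (32768 * g + c) = 1 then 1 else 0) := by
        unfold cntG
        rw [PermPart.cntA_eq, zero_add]
        apply Finset.sum_congr rfl
        intro c _
        by_cases h : oo (32768 * g + c) = 1
        · have h2 : Nat.beq (oo (Nat.add (Nat.mul 32768 g) c)) 1 = true := by
            rw [Nat.beq_eq]
            exact h
          rw [if_pos h, h2]
          rfl
        · have h2 : Nat.beq (oo (Nat.add (Nat.mul 32768 g) c)) 1 = false := by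
            rw [← Bool.not_eq_true, Nat.beq_eq]
            exact h
          rw [if_neg h, h2]
          rfl
      rw [Nat.mul_succ, Finset.sum_range_add, ih, Finset.sum_range_succ (fun i => cntG i) g, h3]
  have e : (2 : ℕ) ^ 18 = 32768 * 8 := by norm_num
  rw [e, key]
  simp only [Finset.sum_range_succ, Finset.sum_range_zero, cnt0, cnt1, cnt2, cnt3, cnt4, cnt5, cnt6, cnt7]

/-! ### Parity -/

theorem parity_bit (c : ℕ) : parity c =
    ((c.testBit 0 || c.testBit 1) ^^ (c.testBit 2 || c.testBit 3) ^^ (c.testBit 4 || c.testBit 5) ^^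
      (c.testBit 6 || c.testBit 7) ^^ (c.testBit 8 || c.testBit 9) ^^ (c.testBit 10 || c.testBit 11) ^^
      (c.testBit 12 || c.testBit 13) ^^ (c.testBit 14 || c.testBit 15) ^^ (c.testBit 16 || c.testBit 17)).toNat := by
  simp only [parity, frc_eq]
  generalize hu : Nat.land (Nat.lor c (Nat.shiftRight c 1)) maskL = u
  have hb : ∀ t, t < 9 → u.testBit (2 * t) = (c.testBit (2 * t) || c.testBit (2 * t + 1)) := by
    intro t ht
    rw [← hu]
    show ((c ||| (c >>> 1)) &&& maskL).testBit (2 * t) = _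
    rw [Nat.testBit_and, Nat.testBit_or, Nat.testBit_shiftRight, testBit_maskL (by omega)]
    have : (2 * t) % 2 = 0 := by omega
    simp [this, add_comm 1]
  have e0 : u.testBit 0 = (c.testBit 0 || c.testBit 1) := hb 0 (by norm_num)
  have e1 : u.testBit 2 = (c.testBit 2 || c.testBit 3) := hb 1 (by norm_num)
  have e2 : u.testBit 4 = (c.testBit 4 || c.testBit 5) := hb 2 (by norm_num)
  have e3 : u.testBit 6 = (c.testBit 6 || c.testBit 7) := hb 3 (by norm_num)
  have e4 : u.testBit 8 = (c.testBit 8 || c.testBit 9) := hb 4 (by norm_num)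
  have e5 : u.testBit 10 = (c.testBit 10 || c.testBit 11) := hb 5 (by norm_num)
  have e6 : u.testBit 12 = (c.testBit 12 || c.testBit 13) := hb 6 (by norm_num)
  have e7 : u.testBit 14 = (c.testBit 14 || c.testBit 15) := hb 7 (by norm_num)
  have e8 : u.testBit 16 = (c.testBit 16 || c.testBit 17) := hb 8 (by norm_num)
  rw [← e0, ← e1, ← e2, ← e3, ← e4, ← e5, ← e6, ← e7, ← e8]
  have key : ∀ x : ℕ, Nat.land x 1 = (x.testBit 0).toNat := by
    intro x
    show x &&& 1 = _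
    rw [Nat.and_one_is_mod, Nat.testBit_zero]
    by_cases h : x % 2 = 1 <;> simp [h]
    omega
  rw [key]
  congr 1
  show (((((u ^^^ (u >>> 2)) ^^^ ((u ^^^ (u >>> 2)) >>> 4)) ^^^ (((u ^^^ (u >>> 2)) ^^^ ((u ^^^ (u >>> 2)) >>> 4)) >>> 8)) ^^^ (u >>> 16))).testBit 0 = _
  simp only [Nat.testBit_xor, Nat.testBit_shiftRight, Nat.reduceAdd, Nat.add_zero]
  generalize u.testBit 0 = b0
  generalize u.testBit 2 = b1
  generalize u.testBit 4 = b2
  generalize u.testBit 6 = b3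
  generalize u.testBit 8 = b4
  generalize u.testBit 10 = b5
  generalize u.testBit 12 = b6
  generalize u.testBit 14 = b7
  generalize u.testBit 16 = b8
  cases b0 <;> cases b1 <;> cases b2 <;> cases b3 <;> cases b4 <;> cases b5 <;> cases b6 <;> cases b7 <;> cases b8 <;> rfl

/-! ### Vectors -/

section Vectors

variable {F : Type*} [Field F] [CharP F 2] {ω : F}

/-- The decoding of a vector. -/
def decV (ω : F) (x : ℕ) : F9 → F := fun z => dR ω x (idx z)

theorem rw_dec (c : ℕ) (i t : Fin 9) : dR ω (rw c (18 * (i : ℕ))) t = dec ω c i t := (dec_eq_dR c i t).symm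

theorem dR_rowAp (hω' : ω * ω = ω + 1) {c ct : ℕ} (hct : ∀ i t : Fin 9, digit ct i t = digit c t i) (x : ℕ) (t : Fin 9) :
    dR ω (rowP (grp (rw ct 0)) (grp (rw ct 18)) (grp (rw ct 36)) (grp (rw ct 54)) (grp (rw ct 72)) (grp (rw ct 90))
      (grp (rw ct 108)) (grp (rw ct 126)) (grp (rw ct 144)) x) t = ∑ k : Fin 9, dec ω c t k * dR ω x k := by
  rw [dR_rowP hω' (rw_lt _ _) (rw_lt _ _) (rw_lt _ _) (rw_lt _ _) (rw_lt _ _) (rw_lt _ _) (rw_lt _ _) (rw_lt _ _)
    (rw_lt _ _) x t.2]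
  have hk : ∀ k : Fin 9, dec ω c t k = dR ω (rw ct (18 * (k : ℕ))) t := by
    intro k
    rw [rw_dec, dec_digit, dec_digit, hct]
  simp only [hk, Fin.sum_univ_succ, Fin.sum_univ_zero]
  simp [Fin.succ, mul_comm]

theorem mulVec_decV (hω' : ω * ω = ω + 1) {c ct : ℕ} (hct : ∀ i t : Fin 9, digit ct i t = digit c t i)
    {g : Matrix F9 F9 F} (hg : EE F g = dec ω c) (x : ℕ) :
    g *ᵥ decV ω x = decV ω (rowP (grp (rw ct 0)) (grp (rw ct 18)) (grp (rw ct 36)) (grp (rw ct 54)) (grp (rw ct 72))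
      (grp (rw ct 90)) (grp (rw ct 108)) (grp (rw ct 126)) (grp (rw ct 144)) x) := by
  funext z
  show ∑ w, g z w * dR ω x (idx w) = dR ω _ (idx z)
  have h := dR_rowAp hω' hct x (eF9 z)
  have e : ((eF9 z : Fin 9) : ℕ) = idx z := rfl
  rw [e] at h
  rw [h, ← hg, ← Equiv.sum_comp eF9]
  apply Finset.sum_congr rfl
  intro w _
  have : (EE F g) (eF9 z) (eF9 w) = g z w := by
    show g (eF9.symm (eF9 z)) (eF9.symm (eF9 w)) = g z w
    simp
  rw [this]
  rfl

theorem decV_wr (hω' : ω * ω = ω + 1) (x : ℕ) : decV ω (wr x) = ω • decV ω x := by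
  funext z
  show dR ω (wr x) (idx z) = ω * dR ω x (idx z)
  exact dR_wr hω' x (idx_lt z)

theorem decV_zero : decV ω 0 = 0 := by
  funext z
  simp [decV, dR, mkE]

theorem decV_one_eq : decV ω 1 = (Pi.single (0 : F9) (1 : F) : F9 → F) := by
  funext z
  have h : ∀ z : F9, (Nat.testBit 1 (2 * idx z) = decide (z = 0)) ∧ Nat.testBit 1 (2 * idx z + 1) = false := by
    decide +kernel
  show mkE ω (Nat.testBit 1 (2 * idx z)) (Nat.testBit 1 (2 * idx z + 1)) = _
  rw [(h z).1, (h z).2, Pi.single_apply]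
  by_cases hz : z = 0 <;> simp [mkE, hz]

theorem decV_inj (hω0 : ω ≠ 0) (hω1 : ω ≠ 1) {a b : ℕ} (ha : a < 2 ^ 18) (hb : b < 2 ^ 18) (h : decV ω a = decV ω b) :
    a = b := by
  apply Nat.eq_of_testBit_eq
  intro j
  by_cases hj : j < 18
  · have ht : j / 2 < 9 := by omega
    have h1 := congrFun h (eF9.symm ⟨j / 2, ht⟩)
    have e : idx (eF9.symm ⟨j / 2, ht⟩) = j / 2 := idx_eF9_symm _
    simp only [decV, dR, e] at h1
    obtain ⟨h2, h3⟩ := mkE_inj hω0 hω1 h1
    by_cases hp : j % 2 = 0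
    · have e2 : 2 * (j / 2) = j := by omega
      rw [e2] at h2
      exact h2
    · have e2 : 2 * (j / 2) + 1 = j := by omega
      rw [e2] at h3
      exact h3
  · have h2 : 2 ^ 18 ≤ 2 ^ j := Nat.pow_le_pow_right (by norm_num) (by omega)
    rw [Nat.testBit_lt_two_pow (lt_of_lt_of_le ha h2), Nat.testBit_lt_two_pow (lt_of_lt_of_le hb h2)]

theorem decV_surj [Fintype F] (hF : Fintype.card F = 4) (hω0 : ω ≠ 0) (hω1 : ω ≠ 1) (v : F9 → F) :
    ∃ c, c < 2 ^ 18 ∧ decV ω c = v := by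
  classical
  let φ : Fin (2 ^ 18) → (F9 → F) := fun c => decV ω c
  have hφ : Function.Injective φ := fun a b h => Fin.ext (decV_inj hω0 hω1 a.2 b.2 h)
  have hc : Fintype.card (Fin (2 ^ 18)) = Fintype.card (F9 → F) := by
    rw [Fintype.card_fun, hF, Fintype.card_fin]
    have : Fintype.card F9 = 9 := by
      rw [Fintype.card_prod, ZMod.card]
    rw [this]
    norm_num
  obtain ⟨c, hc2⟩ := ((Fintype.bijective_iff_injective_and_card φ).mpr ⟨hφ, hc⟩).2 v
  exact ⟨c, c.2, hc2⟩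

theorem cube_mkE (hω' : ω * ω = ω + 1) (a b : Bool) : (mkE ω a b) ^ 3 = if (a || b) then 1 else 0 := by
  have h3 : ω ^ 3 = 1 := by
    calc ω ^ 3 = ω * ω * ω := by ring
      _ = (ω + 1) * ω := by rw [hω']
      _ = ω * ω + ω := by ring
      _ = ω + 1 + ω := by rw [hω']
      _ = 1 + (ω + ω) := by ring
      _ = 1 := by rw [CharTwo.add_self_eq_zero, add_zero]
  have h4 : ((1 : F) + ω) ^ 3 = 1 := by
    have e : (1 : F) + ω = ω * ω := by rw [hω', add_comm]
    have e2 : (ω * ω) ^ 3 = ω ^ 3 * ω ^ 3 := by ring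
    rw [e, e2, h3, one_mul]
  cases a <;> cases b <;> simp [mkE, h3, h4]

theorem sum_cubes (hω' : ω * ω = ω + 1) (c : ℕ) : ∑ z, (decV ω c z) ^ 3 = ((parity c : ℕ) : F) := by
  have e1 : ∑ z, (decV ω c z) ^ 3 = ∑ k : Fin 9, (dR ω c k) ^ 3 := by
    rw [← Equiv.sum_comp eF9]
    rfl
  have e2 : ∀ a : Bool, ((a.toNat : ℕ) : F) = if a then 1 else 0 := by
    intro a
    cases a <;> simp
  rw [e1, parity_bit, e2]
  simp only [ite_xor]
  simp only [Fin.sum_univ_succ, Fin.sum_univ_zero, dR, cube_mkE hω']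
  simp [Fin.succ]
  ring

end Vectors

/-! ### The orbits -/

section Main

variable {F : Type*} [Field F] [Fintype F] [CharP F 2] {ω : F} (hω' : ω * ω = ω + 1) (hω0 : ω ≠ 0) (hω1 : ω ≠ 1)

/-- The setup. -/
local notation "SS" => theSetup hω' hω0 hω1

include hω' in
theorem act_gA (x : ℕ) : (((SS).gA : GL F9 F) : Matrix F9 F9 F) *ᵥ decV ω x = decV ω (ap 0 x) :=
  mulVec_decV hω' cAt_spec (SS).hgA x

include hω' in
theorem act_gB (x : ℕ) : (((SS).gB : GL F9 F) : Matrix F9 F9 F) *ᵥ decV ω x = decV ω (ap 1 x) :=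
  mulVec_decV hω' cBt_spec (SS).hgB x

include hω' in
theorem act_mem (s x : ℕ) : ∃ h ∈ (SS).M, ((h : GL F9 F) : Matrix F9 F9 F) *ᵥ decV ω x = decV ω (ap s x) := by
  cases s with
  | zero => exact ⟨_, gA_mem, act_gA hω' hω0 hω1 x⟩
  | succ n => exact ⟨_, gB_mem, act_gB hω' hω0 hω1 x⟩

theorem ap_lt (s x : ℕ) : ap s x < 2 ^ 18 := by
  cases s with
  | zero => exact rowP_lt _ _ _ _ _ _ _ _ _ _
  | succ n => exact rowP_lt _ _ _ _ _ _ _ _ _ _

/-- `g⁻¹` undoes `g`. -/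
theorem inv_act (g : GL F9 F) (x y : F9 → F) (h : (g : Matrix F9 F9 F) *ᵥ x = y) :
    ((g⁻¹ : GL F9 F) : Matrix F9 F9 F) *ᵥ y = x := by
  rw [← h, Matrix.mulVec_mulVec, ← Units.val_mul, inv_mul_cancel, Units.val_one, Matrix.one_mulVec]

theorem mul_act (g h : GL F9 F) (x : F9 → F) :
    ((g * h : GL F9 F) : Matrix F9 F9 F) *ᵥ x = (g : Matrix F9 F9 F) *ᵥ ((h : Matrix F9 F9 F) *ᵥ x) := by
  rw [Matrix.mulVec_mulVec, Units.val_mul]

include hω' in
/-- The codes of an orbit in the table are in the orbit of the root. -/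
theorem reach_all : ∀ d c, c < 2 ^ 18 → od c = d → oo c ≠ 0 →
    ∃ g ∈ (SS).M, ((g : GL F9 F) : Matrix F9 F9 F) *ᵥ decV ω (rootO (oo c)) = decV ω c := by
  intro d
  induction d using Nat.strong_induction_on with
  | _ d ih =>
    intro c hc hd ho
    rcases (chk_spec hc).1 ho with ⟨_, h2⟩ | ⟨_, h2, h3⟩
    · refine ⟨1, Subgroup.one_mem _, ?_⟩
      rw [← h2, Units.val_one, Matrix.one_mulVec]
    · obtain ⟨h, hh, eh⟩ := act_mem hω' hω0 hω1 (ol c) c
      obtain ⟨g, hg, eg⟩ := ih (od (ap (ol c) c)) (by omega) (ap (ol c) c) (ap_lt _ _) rfl (by rw [h2]; exact ho)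
      rw [h2] at eg
      refine ⟨h⁻¹ * g, Subgroup.mul_mem _ (Subgroup.inv_mem _ hh) hg, ?_⟩
      rw [mul_act, eg]
      exact inv_act h _ _ eh

include hω' in
/-- The orbit of the first vector is in the table. -/
theorem closed_O1 (g : GL F9 F) (hg : g ∈ (SS).M) :
    ∃ c, c < 2 ^ 18 ∧ oo c = 1 ∧ (g : Matrix F9 F9 F) *ᵥ decV ω 1 = decV ω c := by
  refine mem_of_left_closed (S := {(SS).gA, (SS).gB})
    (X := {g | ∃ c, c < 2 ^ 18 ∧ oo c = 1 ∧ (g : Matrix F9 F9 F) *ᵥ decV ω 1 = decV ω c}) ?_ ?_ hg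
  · exact ⟨1, by norm_num, oo_one, by rw [Units.val_one, Matrix.one_mulVec]⟩
  · rintro s hs x ⟨c, hc, hc1, e⟩
    show ∃ c', c' < 2 ^ 18 ∧ oo c' = 1 ∧ ((s * x : GL F9 F) : Matrix F9 F9 F) *ᵥ decV ω 1 = decV ω c'
    rw [mul_act, e]
    obtain ⟨h4, h5, _⟩ := (chk_spec hc).2.1 hc1
    rcases hs with rfl | hs
    · exact ⟨_, ap_lt 0 c, h4, act_gA hω' hω0 hω1 c⟩
    · rw [Set.mem_singleton_iff] at hs
      rw [hs]
      exact ⟨_, ap_lt 1 c, h5, act_gB hω' hω0 hω1 c⟩

end Main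

/-! ### Lines -/

section Lines

variable {F V : Type*} [Field F] [Fintype F] [AddCommGroup V] [Module F V]

/-- The number of lines from the number of vectors. -/
theorem lines_card (hF : Fintype.card F = 4) (O : Finset V) (h0 : ∀ x ∈ O, x ≠ 0) (hs : ∀ x ∈ O, ∀ a : Fˣ, a • x ∈ O) :
    ((fun x => Submodule.span F {x}) '' (O : Set V)).ncard * 3 = O.card := by
  classical
  have hf : ∀ ℓ ∈ O.image (fun x => Submodule.span F {x}),
      (O.filter fun x => Submodule.span F {x} = ℓ).card = 3 := by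
    intro ℓ hℓ
    obtain ⟨x0, hx0, rfl⟩ := Finset.mem_image.mp hℓ
    have e : (O.filter fun x => Submodule.span F {x} = Submodule.span F {x0}) =
        (Finset.univ : Finset Fˣ).image (fun a => a • x0) := by
      ext x
      simp only [Finset.mem_filter, Finset.mem_image, Finset.mem_univ, true_and]
      constructor
      · rintro ⟨_, h⟩
        obtain ⟨z, hz⟩ := Submodule.span_singleton_eq_span_singleton.mp h.symm
        exact ⟨z, hz⟩
      · rintro ⟨a, rfl⟩
        refine ⟨hs x0 hx0 a, ?_⟩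
        exact Submodule.span_singleton_smul_eq a.isUnit x0
    rw [e, Finset.card_image_of_injective]
    · rw [Finset.card_univ, Fintype.card_units, hF]
    · intro a b hab
      have h1 : (a : F) • x0 = (b : F) • x0 := hab
      have h2 := smul_left_injective F (h0 x0 hx0) h1
      exact Units.ext h2
  have hcoe : ((fun x => Submodule.span F {x}) '' (O : Set V)) = ((O.image (fun x => Submodule.span F {x}) : Finset _) : Set _) := by
    rw [Finset.coe_image]
  rw [hcoe, Set.ncard_coe_finset, Finset.card_eq_sum_card_image (fun x => Submodule.span F {x}) O,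
    Finset.sum_congr rfl hf]
  simp

end Lines

/-! ### The statements -/

section Final

variable {F : Type*} [Field F] [Fintype F] [CharP F 2] {ω : F} (hF : Fintype.card F = 4) (hω' : ω * ω = ω + 1)
  (hω0 : ω ≠ 0) (hω1 : ω ≠ 1)

include hF hω' in
/-- The nonzero elements. -/
theorem units_cases (a : F) (ha : a ≠ 0) : a = 1 ∨ a = ω ∨ a = ω * ω := by
  have h3 : a ^ 3 = 1 := by
    have := FiniteField.pow_card_sub_one_eq_one a ha
    rw [hF] at this
    exact this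
  have hσ : 1 + ω + ω * ω = 0 := by
    rw [hω']
    have : 1 + ω + (ω + 1) = (1 + 1) + (ω + ω) := by ring
    rw [this, CharTwo.add_self_eq_zero, CharTwo.add_self_eq_zero, add_zero]
  have hc : ω * ω * ω = 1 := by
    calc ω * ω * ω = (ω + 1) * ω := by rw [hω']
      _ = ω * ω + ω := by ring
      _ = ω + 1 + ω := by rw [hω']
      _ = 1 + (ω + ω) := by ring
      _ = 1 := by rw [CharTwo.add_self_eq_zero, add_zero]
  have h4 : (a - 1) * ((a - ω) * (a - ω * ω)) = 0 := by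
    linear_combination h3 + (-a ^ 2 + ω * a) * hσ - hc
  rcases mul_eq_zero.mp h4 with h | h
  · exact Or.inl (sub_eq_zero.mp h)
  · rcases mul_eq_zero.mp h with h | h
    · exact Or.inr (Or.inl (sub_eq_zero.mp h))
    · exact Or.inr (Or.inr (sub_eq_zero.mp h))

open Classical in
/-- The first orbit on vectors. -/
noncomputable def O1 (ω : F) : Finset (F9 → F) :=
  ((Finset.range (2 ^ 18)).filter fun c => oo c = 1).image (decV ω)

omit [Fintype F] [CharP F 2] in
theorem mem_O1' [Fintype F] [CharP F 2] {x : F9 → F} : x ∈ O1 ω ↔ ∃ c, c < 2 ^ 18 ∧ oo c = 1 ∧ decV ω c = x := by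
  classical
  unfold O1
  simp only [Finset.mem_image, Finset.mem_filter, Finset.mem_range]
  constructor
  · rintro ⟨c, ⟨h1, h2⟩, h3⟩
    exact ⟨c, h1, h2, h3⟩
  · rintro ⟨c, h1, h2, h3⟩
    exact ⟨c, ⟨h1, h2⟩, h3⟩

include hω0 hω1 in
theorem card_O1' : (O1 ω).card = 69768 := by
  classical
  unfold O1
  rw [Finset.card_image_of_injOn, card_O1]
  intro a ha b hb h
  have ha' := (Finset.mem_filter.mp ha).1
  have hb' := (Finset.mem_filter.mp hb).1
  exact decV_inj hω0 hω1 (Finset.mem_range.mp ha') (Finset.mem_range.mp hb') h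

include hω0 hω1 in
theorem O1_ne {x : F9 → F} (hx : x ∈ O1 ω) : x ≠ 0 := by
  obtain ⟨c, hc, h1, rfl⟩ := mem_O1'.mp hx
  intro h0
  rw [← decV_zero (ω := ω)] at h0
  have := decV_inj hω0 hω1 hc (by norm_num) h0
  rw [this, oo_zero] at h1
  exact absurd h1 (by norm_num)

include hF hω' in
theorem O1_smul {x : F9 → F} (hx : x ∈ O1 ω) (a : Fˣ) : a • x ∈ O1 ω := by
  obtain ⟨c, hc, h1, rfl⟩ := mem_O1'.mp hx
  have h2 : oo (wr c) = 1 := ((chk_spec hc).2.1 h1).2.2
  have h3 : oo (wr (wr c)) = 1 := ((chk_spec (wr_lt c)).2.1 h2).2.2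
  rw [Units.smul_def]
  rcases units_cases hF hω' a a.ne_zero with h | h | h
  · rw [h, one_smul]
    exact hx
  · rw [h, ← decV_wr hω']
    exact mem_O1'.mpr ⟨_, wr_lt c, h2, rfl⟩
  · rw [h, mul_smul, ← decV_wr hω', ← decV_wr hω']
    exact mem_O1'.mpr ⟨_, wr_lt _, h3, rfl⟩

include hω' hω0 hω1 in
theorem lines_eq : {L : Submodule F (F9 → F) | ∃ g ∈ threeJ3 F ω,
      L = Submodule.span F {(g : Matrix F9 F9 F) *ᵥ (Pi.single (0 : F9) (1 : F) : F9 → F)}} =
    (fun x => Submodule.span F {x}) '' (O1 ω : Set (F9 → F)) := by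
  ext L
  constructor
  · rintro ⟨g, hg, rfl⟩
    rw [← M_eq hω' hω0 hω1] at hg
    obtain ⟨c, hc, hc1, e⟩ := closed_O1 hω' hω0 hω1 g hg
    rw [← decV_one_eq (ω := ω)]
    exact ⟨decV ω c, mem_O1'.mpr ⟨c, hc, hc1, rfl⟩, by rw [e]⟩
  · rintro ⟨x, hx, rfl⟩
    obtain ⟨c, hc, hc1, rfl⟩ := mem_O1'.mp hx
    obtain ⟨g, hg, e⟩ := reach_all hω' hω0 hω1 _ c hc rfl (by rw [hc1]; norm_num)
    rw [hc1] at e
    rw [M_eq hω' hω0 hω1] at hg
    refine ⟨g, hg, ?_⟩
    rw [← decV_one_eq (ω := ω)]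
    show _ = Submodule.span F {(g : Matrix F9 F9 F) *ᵥ decV ω (rootO 1)}
    rw [e]

include hF hω' hω0 hω1 in
theorem lines_count : {L : Submodule F (F9 → F) | ∃ g ∈ threeJ3 F ω,
      L = Submodule.span F {(g : Matrix F9 F9 F) *ᵥ (Pi.single (0 : F9) (1 : F) : F9 → F)}}.ncard = 23256 := by
  rw [lines_eq hω' hω0 hω1]
  have := lines_card hF (O1 ω) (fun x hx => O1_ne hω0 hω1 hx) (fun x hx a => O1_smul hF hω' hx a)
  rw [card_O1' hω0 hω1] at this
  omega

include hF hω' hω0 hω1 in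
theorem reach_iso (v : F9 → F) (hv : v ≠ 0) (hs : ∑ z, (v z) ^ 3 = 0) :
    ∃ g ∈ threeJ3 F ω, (g : Matrix F9 F9 F) *ᵥ decV ω 20 = v := by
  obtain ⟨c, hc, rfl⟩ := decV_surj hF hω0 hω1 v
  have hc0 : c ≠ 0 := by
    rintro rfl
    exact hv decV_zero
  have hp : parity c ≠ 1 := by
    intro hp
    rw [sum_cubes hω', hp] at hs
    simp at hs
  have ho : oo c = 2 := by
    by_contra h
    exact hp ((chk_spec hc).2.2 h hc0)
  obtain ⟨g, hg, e⟩ := reach_all hω' hω0 hω1 _ c hc rfl (by rw [ho]; norm_num)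
  rw [ho] at e
  rw [M_eq hω' hω0 hω1] at hg
  exact ⟨g, hg, e⟩

include hF hω' hω0 hω1 in
theorem iso_trans (v w : F9 → F) (hv : v ≠ 0) (hw : w ≠ 0) (hsv : ∑ z, (v z) ^ 3 = 0) (hsw : ∑ z, (w z) ^ 3 = 0) :
    ∃ g ∈ threeJ3 F ω, (g : Matrix F9 F9 F) *ᵥ v = w := by
  obtain ⟨g1, hg1, e1⟩ := reach_iso hF hω' hω0 hω1 v hv hsv
  obtain ⟨g2, hg2, e2⟩ := reach_iso hF hω' hω0 hω1 w hw hsw
  refine ⟨g2 * g1⁻¹, Subgroup.mul_mem _ hg2 (Subgroup.inv_mem _ hg1), ?_⟩
  rw [mul_act, inv_act g1 _ _ e1, e2]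

end Final

/-- The orbits on lines. -/
theorem orbits_main {F : Type*} [Field F] [Fintype F] (hF : Fintype.card F = 4) (ω : F) (hω : ω ^ 2 + ω + 1 = 0) :
    {L : Submodule F (F9 → F) | ∃ g ∈ threeJ3 F ω,
      L = Submodule.span F {(g : Matrix F9 F9 F) *ᵥ (Pi.single (0 : F9) (1 : F) : F9 → F)}}.ncard = 23256 ∧
    ∀ v w : F9 → F, v ≠ 0 → w ≠ 0 → ∑ z, (v z) ^ 3 = 0 → ∑ z, (w z) ^ 3 = 0 →
      ∃ g ∈ threeJ3 F ω, ∃ c : F, c ≠ 0 ∧ (g : Matrix F9 F9 F) *ᵥ v = c • w := by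
  have : CharP F 2 := charP_of_card hF
  have hω' := omega_sq hω
  have hω0 := omega_ne_zero hω
  have hω1 := omega_ne_one hω
  refine ⟨lines_count hF hω' hω0 hω1, fun v w hv hw hsv hsw => ?_⟩
  obtain ⟨g, hg, e⟩ := iso_trans hF hω' hω0 hω1 v w hv hw hsv hsw
  exact ⟨g, hg, 1, one_ne_zero, by rw [e, one_smul]⟩

end Cfsg.Agent.Lib.Compute.J3.Orbits
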